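import Cfsg.Agent.ModRep.Basic
import Cfsg.Agent.Brauer.FrobTrace
import Cfsg.Agent.Brauer.GreenSocle
import Cfsg.Agent.Lib.Element

/-!
Brauer's theorem: the number of `p`-regular classes is the number of irreducible representations
in characteristic `p` (owner: helper32).
-/

set_option linter.style.haveILetI false

namespace Cfsg.Agent.ModRep

open scoped MonoidAlgebra
open Cfsg.Agent

universe u u' w

variable {k : Type u'} [Field k] {G : Type u} [Group G]

theorem pComplPart_conj [Finite G] {p : ℕ} [hp : Fact p.Prime] (x g : G) :
    Element.pComplPart p (x * g * x⁻¹) = x * Element.pComplPart p g * x⁻¹ := by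
  exact (Element.pPart_conj hp.out x g).2

theorem pComplPart_eq_self [Finite G] {p : ℕ} [hp : Fact p.Prime] {g : G} (hg : ¬ p ∣ orderOf g) :
    Element.pComplPart p g = g := by
  exact (Element.pPart_eq_one hp.out (Nat.coprime_comm.1 (hp.out.coprime_iff_not_dvd.2 hg))).2

/-- An element killed by every irreducible representation acts nilpotently everywhere. -/
theorem isNilpotent_of_irr {p : ℕ} [Fact p.Prime] [CharP k p] {x : k[G]}
    (hx : ∀ (W : Type (max u u')) [AddCommGroup W] [Module k W] [FiniteDimensional k W]
      (σ : Representation k G W), Irr σ → Nontrivial W → σ.asAlgebraHom x = 0) :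
    ∀ (n : ℕ) (W : Type (max u u')) [AddCommGroup W] [Module k W] [FiniteDimensional k W]
      (σ : Representation k G W), Module.finrank k W ≤ n →
      ∃ m, ∀ v, (σ.asAlgebraHom x ^ m) v = 0 := by
  intro n
  induction n with
  | zero =>
    intro W _ _ _ σ h
    haveI : Subsingleton W := Module.finrank_zero_iff.1 (Nat.le_zero.1 h)
    exact ⟨0, fun v => Subsingleton.elim _ _⟩
  | succ n ih =>
    intro W _ _ _ σ h
    by_cases hirr : Irr σ
    · rcases subsingleton_or_nontrivial W with hW | hW
      · exact ⟨0, fun v => Subsingleton.elim _ _⟩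
      · exact ⟨1, fun v => by rw [pow_one, hx W σ hirr hW, LinearMap.zero_apply]⟩
    unfold Irr at hirr
    push Not at hirr
    obtain ⟨U, hU, hU0, hU1⟩ := hirr
    have hlt : Module.finrank k U < Module.finrank k W := Submodule.finrank_lt hU1
    have hq : Module.finrank k (W ⧸ U) + Module.finrank k U = Module.finrank k W :=
      U.finrank_quotient_add_finrank
    have h0 : 0 < Module.finrank k U := Submodule.finrank_eq_zero.not.2 hU0 |> Nat.pos_of_ne_zero
    obtain ⟨m1, h1⟩ := ih U (subRep σ hU) (by omega)
    obtain ⟨m2, h2⟩ := ih (W ⧸ U) (quotRep σ hU) (by omega)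
    have hs : ∀ (v : U), ((subRep σ hU).asAlgebraHom x v : W) = σ.asAlgebraHom x v := by
      intro v
      clear hx ih h1 h2
      induction x using MonoidAlgebra.induction_linear with
      | zero => simp
      | add a b ha hb => simp [ha, hb]
      | single g t => simp [Representation.asAlgebraHom_single, subRep_apply]
    have hq' : ∀ (v : W), (quotRep σ hU).asAlgebraHom x (Submodule.Quotient.mk v) =
        Submodule.Quotient.mk (σ.asAlgebraHom x v) := by
      intro v
      clear hx ih h1 h2 hs
      induction x using MonoidAlgebra.induction_linear with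
      | zero => simp
      | add a b ha hb => simp [ha, hb]
      | single g t => simp [Representation.asAlgebraHom_single, quotRep_mk]
    have hs' : ∀ (m : ℕ) (v : U),
        (((subRep σ hU).asAlgebraHom x ^ m) v : W) = (σ.asAlgebraHom x ^ m) v := by
      intro m
      induction m with
      | zero => simp
      | succ m ihm => intro v; rw [pow_succ', pow_succ', Module.End.mul_apply, Module.End.mul_apply, hs, ihm]
    have hq'' : ∀ (m : ℕ) (v : W), ((quotRep σ hU).asAlgebraHom x ^ m) (Submodule.Quotient.mk v) =
        Submodule.Quotient.mk ((σ.asAlgebraHom x ^ m) v) := by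
      intro m
      induction m with
      | zero => simp
      | succ m ihm => intro v; rw [pow_succ', pow_succ', Module.End.mul_apply, Module.End.mul_apply, ihm, hq']
    refine ⟨m1 + m2, fun v => ?_⟩
    have hv : (σ.asAlgebraHom x ^ m2) v ∈ U := by
      rw [← Submodule.Quotient.mk_eq_zero, ← hq'', h2]
    rw [pow_add, Module.End.mul_apply, ← hs' m1 ⟨_, hv⟩, h1, Submodule.coe_zero]

open scoped Classical in
/-- The number of `p`-regular classes is the number of irreducible representations. -/
theorem card_regular_classes [Finite G] [IsAlgClosed k] {p : ℕ} [Fact p.Prime] [CharP k p]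
    {ι : Type*} [Fintype ι] {V : ι → Type w} [∀ i, AddCommGroup (V i)] [∀ i, Module k (V i)]
    [∀ i, FiniteDimensional k (V i)] (ρ : ∀ i, Representation k G (V i))
    (hne : ∀ i, Nontrivial (V i)) (hirr : ∀ i, Irr (ρ i))
    (hnoiso : ∀ i j, i ≠ j → ∀ φ : V i →ₗ[k] V j, (∀ g v, φ (ρ i g v) = ρ j g (φ v)) → φ = 0)
    (hall : ∀ (W : Type (max u u')) [AddCommGroup W] [Module k W] [FiniteDimensional k W]
      (σ : Representation k G W), Irr σ → Nontrivial W →
        ∃ (i : ι) (e : W →ₗ[k] V i), Function.Injective e ∧ ∀ g v, e (σ g v) = ρ i g (e v)) :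
    Nat.card {c : ConjClasses G // ∃ g : G, ConjClasses.mk g = c ∧ ¬ p ∣ orderOf g} = Fintype.card ι := by
  haveI := Fintype.ofFinite G
  have hp : p.Prime := Fact.out
  set C := {c : ConjClasses G // ∃ g : G, ConjClasses.mk g = c ∧ ¬ p ∣ orderOf g}
  haveI : Fintype C := Fintype.ofFinite C
  rw [Nat.card_eq_fintype_card]
  choose rep hrep hrepreg using fun c : C => c.2
  refine le_antisymm ?_ ?_
  · -- trace-like functionals are combinations of traces
    set n := p ^ (Nat.card G).factorization p with hn
    have hcop : ∀ g : G, ¬ p ∣ orderOf g → n.Coprime (orderOf g) := fun g hg =>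
      Nat.Coprime.pow_left _ (hp.coprime_iff_not_dvd.2 hg)
    have hpn : ∀ g : G, g ^ n = Element.pComplPart p g ^ n := by
      intro g
      have h1 : Element.pPart p g ^ n = 1 := by
        rw [← orderOf_dvd_iff_pow_eq_one, Element.orderOf_pPart_eq_pow hp g, hn]
        exact pow_dvd_pow p ((Nat.factorization_le_iff_dvd (orderOf_pos g).ne' Nat.card_pos.ne').2
          (orderOf_dvd_natCard g) p)
      conv_lhs => rw [← Element.pPart_mul_pComplPart p g]
      rw [(Element.commute_pPart_pComplPart p g).mul_pow, h1, one_mul]
    let Cs : C → Set G := fun c => {g | ConjClasses.mk (Element.pComplPart p g) = c.1}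
    let φ : C → (k[G] →ₗ[k] k) := fun c =>
      { toFun := Brauer.setTot (Cs c)
        map_add' := fun a b => by
          simp only [Brauer.setTot, ← Finset.sum_add_distrib]
          refine Finset.sum_congr rfl fun g _ => ?_
          by_cases h : g ∈ Cs c <;> simp [h]
        map_smul' := fun t a => by
          simp only [Brauer.setTot, RingHom.id_apply, smul_eq_mul, Finset.mul_sum]
          refine Finset.sum_congr rfl fun g _ => ?_
          by_cases h : g ∈ Cs c <;> simp [h] }
    have hφ1 : ∀ c g (t : k), φ c (MonoidAlgebra.single g t) = (Cs c).indicator (fun _ => t) g := by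
      intro c g t
      show Brauer.setTot _ _ = _
      rw [Brauer.setTot, Finset.sum_eq_single g]
      · by_cases h : g ∈ Cs c <;> simp [h]
      · intro b _ hb
        by_cases h : b ∈ Cs c <;> simp [h, hb.symm]
      · simp
    have hcs : ∀ c g h, g ∈ Cs c ↔ h * g * h⁻¹ ∈ Cs c := by
      intro c g h
      simp only [Cs, Set.mem_ofPred_eq, pComplPart_conj]
      rw [show ConjClasses.mk (h * Element.pComplPart p g * h⁻¹) = ConjClasses.mk (Element.pComplPart p g)
        from ConjClasses.mk_eq_mk_iff_isConj.2 (isConj_iff.2 ⟨h, rfl⟩).symm]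
    have hswap : ∀ c a b, φ c (a * b) = φ c (b * a) := by
      intro c a b
      induction a using MonoidAlgebra.induction_linear with
      | zero => simp
      | add a a' ha ha' => simp [add_mul, mul_add, ha, ha']
      | single g s =>
        induction b using MonoidAlgebra.induction_linear with
        | zero => simp
        | add b b' hb hb' => simp [add_mul, mul_add, hb, hb']
        | single g' t =>
          rw [MonoidAlgebra.single_mul_single, MonoidAlgebra.single_mul_single, hφ1, hφ1, mul_comm t s]
          have hiff : g * g' ∈ Cs c ↔ g' * g ∈ Cs c := by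
            rw [hcs c (g' * g) g]
            simp [mul_assoc]
          by_cases h : g * g' ∈ Cs c <;> simp [h, hiff.symm]
    let π : k[G] →ₐ[k] ∀ i, Module.End k (V i) := AlgHom.pi fun i => (ρ i).asAlgebraHom
    have hπ : ∀ x i, π x i = (ρ i).asAlgebraHom x := fun x i => rfl
    have hπs : Function.Surjective π := fun A => by
      obtain ⟨r, hr⟩ := exists_asAlgebraHom_eq ρ hne hirr hnoiso A
      exact ⟨r, funext hr⟩
    have hker : ∀ x c, π x = 0 → φ c x = 0 := by
      intro x c hx
      have hx' : ∀ (W : Type (max u u')) [AddCommGroup W] [Module k W] [FiniteDimensional k W]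
          (σ : Representation k G W), Irr σ → Nontrivial W → σ.asAlgebraHom x = 0 := by
        intro W _ _ _ σ h1 h2
        obtain ⟨i, e, he, hei⟩ := hall W σ h1 h2
        have key : ∀ (y : k[G]) v, e (σ.asAlgebraHom y v) = (ρ i).asAlgebraHom y (e v) := by
          intro y v
          induction y using MonoidAlgebra.induction_linear with
          | zero => simp
          | add a b ha hb => simp [ha, hb]
          | single g t => simp [Representation.asAlgebraHom_single, hei]
        refine LinearMap.ext fun v => he ?_
        rw [key, ← hπ, hx, LinearMap.zero_apply, map_zero]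
        simp
      obtain ⟨m, hm⟩ := isNilpotent_of_irr (p := p) hx' _ (G → k) (Brauer.funRep k G) le_rfl
      have hxm : x ^ m = 0 := by
        refine Block.groupAlgebra_ext fun g => ?_
        have h := congrFun (hm (Pi.single g 1)) 1
        rw [← map_pow, Brauer.asAlgebraHom_eq_sum] at h
        simp only [LinearMap.sum_apply, LinearMap.smul_apply, Finset.sum_apply, Pi.smul_apply,
          Brauer.funRep_apply, one_mul, Pi.zero_apply, smul_eq_mul] at h
        rw [Finset.sum_eq_single g (fun b _ hb => by simp [hb]) (by simp)] at h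
        simpa using h
      -- a large power of `p`
      set e := (Nat.card G).factorization p
      set N := e + m with hN
      have hpN : x ^ p ^ N = 0 := pow_eq_zero_of_le (le_trans (Nat.le_add_left m e)
        (Nat.lt_pow_self hp.one_lt).le) hxm
      have hcopN : ∀ g : G, ¬ p ∣ orderOf g → (p ^ N).Coprime (orderOf g) := fun g hg =>
        Nat.Coprime.pow_left _ (hp.coprime_iff_not_dvd.2 hg)
      have hgN : ∀ g : G, g ^ p ^ N = Element.pComplPart p g ^ p ^ N := by
        intro g
        rw [hN, pow_add, pow_mul, pow_mul, ← hn, hpn g]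
      have key := Brauer.setTot_pow_prime_pow (k := k) (p := p) N
        {g : G | ConjClasses.mk g = ConjClasses.mk (rep c ^ p ^ N)}
        (fun g h hg => by
          rw [Set.mem_ofPred_eq] at hg ⊢
          rw [← hg]
          exact ConjClasses.mk_eq_mk_iff_isConj.2 (isConj_iff.2 ⟨h, rfl⟩).symm) x
      have hset : {g : G | g ^ p ^ N ∈ {g : G | ConjClasses.mk g = ConjClasses.mk (rep c ^ p ^ N)}}
          = Cs c := by
        ext g
        simp only [Set.mem_ofPred_eq, Cs]
        rw [hgN g, ← hrep c, ConjClasses.mk_eq_mk_iff_isConj, ConjClasses.mk_eq_mk_iff_isConj]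
        refine ⟨fun h => ?_, fun h => h.pow (n := p ^ N)⟩
        obtain ⟨y, hy⟩ := isConj_iff.1 h
        rw [← conj_pow] at hy
        have hreg : ¬ p ∣ orderOf (Element.pComplPart p g) :=
          hp.coprime_iff_not_dvd.1 (Nat.coprime_comm.1 (Element.coprime_orderOf_pComplPart hp g))
        have hreg' : ¬ p ∣ orderOf (y * Element.pComplPart p g * y⁻¹) := by
          rwa [show y * Element.pComplPart p g * y⁻¹ = MulAut.conj y (Element.pComplPart p g) from rfl,
            (MulAut.conj y).orderOf_eq]
        obtain ⟨m', hm'⟩ := exists_pow_eq_self_of_coprime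
          (x := ((y * Element.pComplPart p g * y⁻¹, rep c) : G × G)) (n := p ^ N) (by
            rw [Prod.orderOf]
            refine Nat.Coprime.coprime_dvd_right (Nat.lcm_dvd_mul _ _) ?_
            exact Nat.Coprime.mul_right (hcopN _ hreg') (hcopN _ (hrepreg c)))
        simp only [Prod.pow_mk, Prod.mk.injEq] at hm'
        exact isConj_iff.2 ⟨y, by rw [← hm'.1, ← hm'.2, hy]⟩
      rw [hset, hpN] at key
      have h0 : Brauer.setTot {g : G | ConjClasses.mk g = ConjClasses.mk (rep c ^ p ^ N)} (0 : k[G]) = 0 := by
        simp [Brauer.setTot]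
      rw [h0] at key
      exact pow_eq_zero_iff (pow_ne_zero _ hp.ne_zero) |>.1 key.symm
    obtain ⟨s, hs⟩ := π.toLinearMap.exists_rightInverse_of_surjective (LinearMap.range_eq_top.2 hπs)
    have hsπ : ∀ A, π (s A) = A := fun A => LinearMap.congr_fun hs A
    have hψ : ∀ c x, φ c x = φ c (s (π x)) := fun c x => by
      rw [← sub_eq_zero, ← map_sub]
      exact hker _ c (by rw [map_sub, hsπ, sub_self])
    have hcomb : ∀ c, ∃ a : ι → k, ∀ x, φ c x = ∑ i, a i * LinearMap.trace k (V i) ((ρ i).asAlgebraHom x) := by
      intro c
      have hti : ∀ i, ∃ a : k, ∀ A, φ c (s (Pi.single (M := fun j => Module.End k (V j)) i A)) =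
          a * LinearMap.trace k (V i) A := fun i => by
        haveI := hne i
        refine exists_eq_mul_trace ((φ c ∘ₗ s) ∘ₗ LinearMap.single k (fun j => Module.End k (V j)) i)
          fun A B => ?_
        simp only [LinearMap.comp_apply, LinearMap.coe_single]
        rw [Pi.single_mul, Pi.single_mul]
        have h1 : ∀ A B : ∀ j, Module.End k (V j), φ c (s (A * B)) = φ c (s A * s B) := fun A B => by
          rw [hψ c (s A * s B), map_mul π, hsπ, hsπ]
        rw [h1, h1, hswap]
      choose a ha using hti
      refine ⟨a, fun x => ?_⟩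
      rw [hψ, ← Finset.univ_sum_single (π x), map_sum, map_sum]
      exact Finset.sum_congr rfl fun i _ => ha i _
    choose a ha using hcomb
    let T : k[G] →ₗ[k] (ι → k) := LinearMap.pi fun i => LinearMap.trace k (V i) ∘ₗ (ρ i).asAlgebraHom.toLinearMap
    let A : (ι → k) →ₗ[k] (C → k) := LinearMap.pi fun c => ∑ i, a c i • LinearMap.proj i
    have hAT : ∀ x c, A (T x) c = φ c x := fun x c => by
      rw [ha]
      simp [A, T]
    have hsurj : Function.Surjective A := by
      intro f
      refine ⟨T (∑ c, f c • MonoidAlgebra.single (rep c) 1), funext fun c => ?_⟩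
      rw [hAT, map_sum, Finset.sum_eq_single c]
      · rw [map_smul, hφ1, Set.indicator_of_mem, smul_eq_mul, mul_one]
        simp [Cs, pComplPart_eq_self (hrepreg c), hrep c]
      · intro b _ hb
        rw [map_smul, hφ1, Set.indicator_of_notMem, smul_zero]
        intro h
        simp only [Cs, Set.mem_ofPred_eq, pComplPart_eq_self (hrepreg b), hrep b] at h
        exact hb (Subtype.ext h)
      · simp
    have := LinearMap.finrank_le_finrank_of_injective (f := A.dualMap) (LinearMap.dualMap_injective_of_surjective hsurj)
    simpa using this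
  · -- independence of traces
    let f : ι → (C → k) := fun i c => LinearMap.trace k (V i) (ρ i (rep c))
    have hli : LinearIndependent k f := by
      rw [Fintype.linearIndependent_iff]
      intro c hc i0
      refine Brauer.traces_independent (p := p) ρ hne hirr hnoiso c (fun g hg => ?_) i0
      have h := congrFun hc ⟨ConjClasses.mk g, g, rfl, hg⟩
      obtain ⟨y, hy⟩ := isConj_iff.1 (ConjClasses.mk_eq_mk_iff_isConj.1
        (hrep ⟨ConjClasses.mk g, g, rfl, hg⟩))
      simp only [Finset.sum_apply, Pi.smul_apply, smul_eq_mul, Pi.zero_apply, f] at h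
      rw [← h]
      refine Finset.sum_congr rfl fun i _ => ?_
      congr 1
      generalize rep ⟨ConjClasses.mk g, g, rfl, hg⟩ = r at hy
      rw [← hy, map_mul (ρ i), map_mul (ρ i), LinearMap.trace_mul_comm, ← mul_assoc, ← map_mul (ρ i), inv_mul_cancel,
        map_one, one_mul]
    simpa using hli.fintype_card_le_finrank

end Cfsg.Agent.ModRep
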