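import Cfsg.Agent.Brauer.ModTrace
import Mathlib.GroupTheory.PGroup
import Mathlib.GroupTheory.Perm.Cycle.Type
import Mathlib.FieldTheory.IsAlgClosed.Basic

/-!
Representations in characteristic `p`: fixed vectors, common eigenvectors, density for a family of
irreducible representations, trace-like functionals (owner: helper32).
-/

set_option linter.style.haveILetI false

namespace Cfsg.Agent.ModRep

open scoped MonoidAlgebra

/-- An invariant subspace. -/
def IsInv {k G V : Type*} [Field k] [Monoid G] [AddCommGroup V] [Module k V]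
    (ρ : Representation k G V) (U : Submodule k V) : Prop :=
  ∀ g, ∀ v ∈ U, ρ g v ∈ U

/-- Irreducibility through invariant subspaces. -/
def Irr {k G V : Type*} [Field k] [Monoid G] [AddCommGroup V] [Module k V]
    (ρ : Representation k G V) : Prop :=
  ∀ U : Submodule k V, IsInv ρ U → U = ⊥ ∨ U = ⊤

variable {k : Type*} [Field k] {G : Type*} [Group G] {V : Type*} [AddCommGroup V] [Module k V]

/-- The representation on an invariant subspace. -/
noncomputable def subRep (ρ : Representation k G V) {U : Submodule k V} (h : IsInv ρ U) :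
    Representation k G U where
  toFun g := (ρ g).restrict (h g)
  map_one' := LinearMap.ext fun s => Subtype.ext (by simp)
  map_mul' a b := LinearMap.ext fun s => Subtype.ext (by simp [Module.End.mul_apply])

theorem subRep_apply (ρ : Representation k G V) {U : Submodule k V} (h : IsInv ρ U) (g : G) (v : U) :
    (subRep ρ h g v : V) = ρ g v := rfl

/-- The representation on the quotient by an invariant subspace. -/
noncomputable def quotRep (ρ : Representation k G V) {U : Submodule k V} (h : IsInv ρ U) :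
    Representation k G (V ⧸ U) where
  toFun g := U.mapQ U (ρ g) fun v hv => h g v hv
  map_one' := Submodule.linearMap_qext _ (LinearMap.ext fun v => by simp)
  map_mul' a b := Submodule.linearMap_qext _ (LinearMap.ext fun v => by simp [Module.End.mul_apply])

theorem quotRep_mk (ρ : Representation k G V) {U : Submodule k V} (h : IsInv ρ U) (g : G) (v : V) :
    quotRep ρ h g (Submodule.Quotient.mk v) = Submodule.Quotient.mk (ρ g v) := rfl

theorem span_orbit_inv (ρ : Representation k G V) (z : V) :
    IsInv ρ (Submodule.span k (Set.range fun g => ρ g z)) := by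
  intro g v hv
  have h : Submodule.span k (Set.range fun g => ρ g z) ≤
      (Submodule.span k (Set.range fun g => ρ g z)).comap (ρ g) := by
    rw [Submodule.span_le]
    rintro _ ⟨a, rfl⟩
    exact Submodule.subset_span ⟨g * a, by simp⟩
  exact h hv

/-- A `p`-group in characteristic `p` fixes a non-zero vector. -/
theorem exists_fixed_vector (p : ℕ) [hp : Fact p.Prime] [CharP k p] (ρ : Representation k G V)
    {P : Subgroup G} [Finite P] (hP : IsPGroup p P) {v : V} (hv : v ≠ 0) :
    ∃ w ∈ Submodule.span k (Set.range fun g => ρ g v), w ≠ 0 ∧ ∀ g ∈ P, ρ g w = w := by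
  classical
  haveI := Fintype.ofFinite P
  let ι : ZMod p →+* k := ZMod.castHom dvd_rfl k
  let Φ : (P → ZMod p) →+ V :=
    { toFun := fun c => ∑ g : P, ι (c g) • ρ (g : G) v
      map_zero' := by simp
      map_add' := fun c d => by simp [add_smul, Finset.sum_add_distrib] }
  have hΦ : ∀ c, Φ c = ∑ g : P, ι (c g) • ρ (g : G) v := fun _ => rfl
  have hmove : ∀ (h : P) (c : P → ZMod p), ρ (h : G) (Φ c) = Φ fun g => c (h⁻¹ * g) := fun h c => by
    rw [hΦ, hΦ, map_sum]
    refine Fintype.sum_equiv (Equiv.mulLeft h) _ _ fun g => ?_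
    simp
  letI : MulAction P Φ.range :=
    { smul := fun h x => ⟨ρ (h : G) x, by
        obtain ⟨c, hc⟩ := x.2
        exact ⟨_, (hmove h c).symm.trans (by rw [hc])⟩⟩
      one_smul := fun x => Subtype.ext (show ρ ((1 : P) : G) (x : V) = x by simp)
      mul_smul := fun a b x => Subtype.ext
        (show ρ ((a * b : P) : G) (x : V) = ρ (a : G) (ρ (b : G) x) by simp [Module.End.mul_apply]) }
  have hv' : v ∈ Φ.range := ⟨Pi.single 1 1, by
    rw [hΦ, Finset.sum_eq_single 1 (fun b _ hb => by simp [hb]) (by simp)]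
    simp⟩
  haveI : Nontrivial Φ.range := ⟨⟨⟨v, hv'⟩, 0, fun e => hv (congrArg Subtype.val e)⟩⟩
  haveI : Finite Φ.range := Finite.of_surjective Φ.rangeRestrict Φ.rangeRestrict_surjective
  have hdvd : p ∣ Nat.card Φ.range := by
    have h1 : Nat.card Φ.range ∣ p ^ Nat.card P := by
      have := AddSubgroup.card_range_dvd Φ
      rwa [Nat.card_fun, Nat.card_zmod] at this
    obtain ⟨i, -, hi⟩ := (Nat.dvd_prime_pow hp.out).1 h1
    rw [hi]
    refine dvd_pow_self p fun h0 => ?_
    rw [h0, pow_zero] at hi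
    exact absurd hi (Finite.one_lt_card (α := Φ.range)).ne'
  obtain ⟨b, hb, hb0⟩ := hP.exists_fixed_point_of_prime_dvd_card_of_fixed_point Φ.range hdvd
    (a := (0 : Φ.range)) (fun h => Subtype.ext (show ρ (h : G) (0 : V) = 0 from map_zero _))
  refine ⟨b, ?_, fun e => hb0 (Subtype.ext e.symm), fun g hg => congrArg Subtype.val (hb ⟨g, hg⟩)⟩
  obtain ⟨c, hc⟩ := b.2
  rw [← hc, hΦ]
  exact Submodule.sum_mem _ fun g _ => Submodule.smul_mem _ _ (Submodule.subset_span ⟨_, rfl⟩)

/-- A commutative subgroup has a common eigenvector in each invariant subspace. -/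
theorem exists_common_eigen [IsAlgClosed k] [FiniteDimensional k V] (ρ : Representation k G V)
    {A : Subgroup G} (hA : ∀ a ∈ A, ∀ b ∈ A, a * b = b * a) {W : Submodule k V} (hW : W ≠ ⊥)
    (hinv : ∀ a ∈ A, ∀ v ∈ W, ρ a v ∈ W) :
    ∃ v ∈ W, v ≠ 0 ∧ ∃ χ : A →* kˣ, ∀ a : A, ρ (a : G) v = (χ a : k) • v := by
  obtain ⟨W', ⟨hle, h0, hW'⟩, hmin⟩ := wellFounded_lt.has_min
    {U : Submodule k V | U ≤ W ∧ U ≠ ⊥ ∧ ∀ a ∈ A, ∀ v ∈ U, ρ a v ∈ U} ⟨W, le_rfl, hW, hinv⟩
  have hscal : ∀ a : A, ∃ c : k, ∀ v ∈ W', ρ (a : G) v = c • v := by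
    intro a
    haveI : Nontrivial W' := Submodule.nontrivial_iff_ne_bot.2 h0
    obtain ⟨c, hc⟩ := Module.End.exists_eigenvalue ((ρ (a : G)).restrict (hW' a a.2))
    refine ⟨c, ?_⟩
    obtain ⟨w, hw⟩ := hc.exists_hasEigenvector
    have hU : W' ⊓ Module.End.eigenspace (ρ (a : G)) c = W' := by
      by_contra hne
      refine hmin _ ⟨inf_le_left.trans hle, ?_, ?_⟩ (lt_of_le_of_ne inf_le_left hne)
      · refine (Submodule.ne_bot_iff _).2 ⟨w, ⟨w.2, Module.End.mem_eigenspace_iff.2 ?_⟩, ?_⟩
        · exact congrArg Subtype.val hw.apply_eq_smul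
        · exact fun e => hw.2 (Subtype.ext e)
      · intro b hb v hv
        refine ⟨hW' b hb v hv.1, Module.End.mem_eigenspace_iff.2 ?_⟩
        rw [← Module.End.mul_apply, ← map_mul, hA a a.2 b hb, map_mul, Module.End.mul_apply,
          Module.End.mem_eigenspace_iff.1 hv.2, map_smul]
    intro v hv
    rw [← hU] at hv
    exact Module.End.mem_eigenspace_iff.1 hv.2
  choose c hc using hscal
  obtain ⟨v, hv, hv0⟩ := (Submodule.ne_bot_iff _).1 h0
  have hone : c 1 = 1 := by
    refine smul_left_injective k hv0 ?_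
    simp only [← hc 1 v hv, Subgroup.coe_one, map_one, Module.End.one_apply, one_smul]
  have hmul : ∀ a b, c (a * b) = c a * c b := fun a b => by
    refine smul_left_injective k hv0 ?_
    simp only [← hc _ v hv, Subgroup.coe_mul, map_mul, Module.End.mul_apply]
    rw [hc b v hv, map_smul, hc a v hv, smul_smul, mul_comm]
  exact ⟨v, hle hv, hv0, MonoidHom.toHomUnits ⟨⟨c, hone⟩, hmul⟩, fun a => hc a v hv⟩

/-- A non-zero vector survives in an irreducible quotient of the subspace it generates. -/
theorem exists_simple_quotient [FiniteDimensional k V] (ρ : Representation k G V) {z : V}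
    (hz : z ≠ 0) :
    ∃ (U : Submodule k V) (hU : IsInv ρ U) (M : Submodule k U) (hM : IsInv (subRep ρ hU) M)
      (hzU : z ∈ U), Irr (quotRep (subRep ρ hU) hM) ∧
        (Submodule.Quotient.mk (p := M) ⟨z, hzU⟩) ≠ 0 := by
  set U := Submodule.span k (Set.range fun g => ρ g z) with hUdef
  have hU : IsInv ρ U := span_orbit_inv ρ z
  have hzU : z ∈ U := Submodule.subset_span ⟨1, by simp⟩
  obtain ⟨M, ⟨hM, hzM⟩, hmax⟩ := wellFounded_gt.has_min
    {M : Submodule k U | IsInv (subRep ρ hU) M ∧ (⟨z, hzU⟩ : U) ∉ M}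
    ⟨⊥, fun g v hv => by rw [Submodule.mem_bot] at hv ⊢; simp [hv],
      fun h => hz (congrArg Subtype.val ((Submodule.mem_bot k).1 h))⟩
  refine ⟨U, hU, M, hM, hzU, fun Q hQ => ?_, fun h => hzM ((Submodule.Quotient.mk_eq_zero M).1 h)⟩
  have hQ' : IsInv (subRep ρ hU) (Q.comap M.mkQ) := fun g v hv => hQ g _ hv
  by_cases hz' : (⟨z, hzU⟩ : U) ∈ Q.comap M.mkQ
  · right
    have htop : Q.comap M.mkQ = ⊤ := by
      rw [eq_top_iff]
      rintro ⟨y, hy⟩ -
      have hle : U ≤ (Q.comap M.mkQ).map U.subtype := by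
        conv_lhs => rw [hUdef]
        rw [Submodule.span_le]
        rintro _ ⟨g, rfl⟩
        exact ⟨_, hQ' g _ hz', rfl⟩
      obtain ⟨y', hy', e⟩ := hle hy
      rwa [show y' = ⟨y, hy⟩ from Subtype.ext e] at hy'
    rw [eq_top_iff]
    intro q _
    obtain ⟨y, rfl⟩ := M.mkQ_surjective q
    show y ∈ Q.comap M.mkQ
    rw [htop]
    trivial
  · left
    have hle : M ≤ Q.comap M.mkQ := fun y hy => by
      simp [(Submodule.Quotient.mk_eq_zero M).2 hy]
    rcases hle.lt_or_eq with hlt | heq
    · exact absurd hlt (hmax _ ⟨hQ', hz'⟩)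
    · rw [eq_bot_iff]
      intro q hq
      obtain ⟨y, rfl⟩ := M.mkQ_surjective q
      rw [Submodule.mem_bot]
      exact (Submodule.Quotient.mk_eq_zero M).2 (heq ▸ hq)

/-- An intertwiner from an irreducible representation is injective or zero. -/
theorem ker_intertwiner {W : Type*} [AddCommGroup W] [Module k W] {ρ : Representation k G V}
    {σ : Representation k G W} (h : Irr ρ) {φ : V →ₗ[k] W} (hφ : ∀ g v, φ (ρ g v) = σ g (φ v))
    (h0 : φ ≠ 0) : Function.Injective φ := by
  rw [← LinearMap.ker_eq_bot]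
  refine (h _ fun g v hv => ?_).resolve_right fun e => h0 (LinearMap.ker_eq_top.1 e)
  rw [LinearMap.mem_ker] at hv ⊢
  rw [hφ, hv, map_zero]

/-- An intertwiner into an irreducible representation is surjective or zero. -/
theorem range_intertwiner {W : Type*} [AddCommGroup W] [Module k W] {ρ : Representation k G V}
    {σ : Representation k G W} (h : Irr σ) {φ : V →ₗ[k] W} (hφ : ∀ g v, φ (ρ g v) = σ g (φ v))
    (h0 : φ ≠ 0) : Function.Surjective φ := by
  rw [← LinearMap.range_eq_top]
  refine (h _ ?_).resolve_left fun e => h0 (LinearMap.range_eq_bot.1 e)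
  rintro g _ ⟨v, rfl⟩
  exact ⟨ρ g v, hφ g v⟩

/-- A functional with `f (A B) = f (B A)` is a multiple of the trace. -/
theorem exists_eq_mul_trace [FiniteDimensional k V] [Nontrivial V] (f : Module.End k V →ₗ[k] k)
    (hf : ∀ A B, f (A * B) = f (B * A)) : ∃ c : k, ∀ A, f A = c * LinearMap.trace k V A := by
  obtain ⟨v0, hv0⟩ := exists_ne (0 : V)
  obtain ⟨φ0, hφ0⟩ := LinearMap.exists_leftInverse_of_injective
    (LinearMap.toSpanSingleton k V v0) (LinearMap.ker_toSpanSingleton (R := k) (M := V) hv0)
  have h1 : φ0 v0 = 1 := by simpa using LinearMap.congr_fun hφ0 (1 : k)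
  refine ⟨f (φ0.smulRight v0), ?_⟩
  have hrank : ∀ (ψ : V →ₗ[k] k) (v : V),
      f (ψ.smulRight v) = ψ v * f (φ0.smulRight v0) := by
    intro ψ v
    have e1 : ψ.smulRight v = φ0.smulRight v * ψ.smulRight v0 :=
      LinearMap.ext fun w => by simp [h1]
    have e2 : ψ.smulRight v0 * φ0.smulRight v = ψ v • φ0.smulRight v0 :=
      LinearMap.ext fun w => by simp [smul_smul, mul_comm]
    rw [e1, hf, e2, map_smul, smul_eq_mul]
  intro A
  let b := Module.Free.chooseBasis k V
  have hA : A = ∑ i, (b.coord i).smulRight (A (b i)) := LinearMap.ext fun w => by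
    conv_lhs => rw [← b.sum_repr w, map_sum]
    simp [LinearMap.sum_apply]
  rw [hA, map_sum, map_sum, Finset.mul_sum]
  refine Finset.sum_congr rfl fun i _ => ?_
  rw [hrank, LinearMap.trace_smulRight, mul_comm]

/-- Density for pairwise unrelated irreducible representations. -/
theorem exists_asAlgebraHom_eq {ι : Type*} [Fintype ι] {V : ι → Type*} [∀ i, AddCommGroup (V i)]
    [∀ i, Module k (V i)] [∀ i, FiniteDimensional k (V i)] [IsAlgClosed k]
    (ρ : ∀ i, Representation k G (V i)) (hne : ∀ i, Nontrivial (V i)) (hirr : ∀ i, Irr (ρ i))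
    (hnoiso : ∀ i j, i ≠ j → ∀ φ : V i →ₗ[k] V j, (∀ g v, φ (ρ i g v) = ρ j g (φ v)) → φ = 0)
    (A : ∀ i, Module.End k (V i)) : ∃ r : k[G], ∀ i, (ρ i).asAlgebraHom r = A i := by
  classical
  haveI : ∀ i, IsSimpleModule k[G] (ρ i).asModule := fun i => by
    haveI := hne i
    rw [← Representation.irreducible_iff_isSimpleModule_asModule]
    haveI : Nontrivial (Subrepresentation (ρ i)) := ⟨⊥, ⊤, fun h => by
      obtain ⟨v, hv⟩ := exists_ne (0 : V i)
      have h1 : v ∈ (⊥ : Subrepresentation (ρ i)).toSubmodule := by rw [h]; exact trivial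
      exact hv h1⟩
    refine ⟨fun U => ?_⟩
    rcases hirr i U.toSubmodule (fun g v hv => U.apply_mem_toSubmodule g hv) with h | h
    · exact Or.inl (Subrepresentation.toSubmodule_injective h)
    · exact Or.inr (Subrepresentation.toSubmodule_injective h)
  let M := ∀ i, (ρ i).asModule
  let E : ∀ i, (ρ i).asModule ≃ₗ[k] V i := fun i => (ρ i).asModuleEquiv
  let A' : ∀ i, (ρ i).asModule →ₗ[k] (ρ i).asModule := fun i =>
    (E i).symm.toLinearMap ∘ₗ A i ∘ₗ (E i).toLinearMap
  have hφ : ∀ φ : Module.End k[G] M, ∀ i : ι, ∃ t : k, ∀ m : M, φ m i = t • m i := by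
    intro φ i
    let φc : ∀ j, (ρ j).asModule →ₗ[k[G]] (ρ i).asModule := fun j =>
      LinearMap.proj i ∘ₗ φ ∘ₗ LinearMap.single k[G] (fun l => (ρ l).asModule) j
    let toK : ∀ j, V j →ₗ[k] V i := fun j =>
      (E i).toLinearMap ∘ₗ (φc j).restrictScalars k ∘ₗ (E j).symm.toLinearMap
    have hint : ∀ j g v, toK j (ρ j g v) = ρ i g (toK j v) := fun j g v => by
      simp only [toK, LinearMap.comp_apply, LinearEquiv.coe_coe, LinearMap.restrictScalars_apply,
        E]
      rw [Representation.asModuleEquiv_symm_map_rho, map_smul,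
        Representation.asModuleEquiv_map_smul, Representation.asAlgebraHom_of]
    obtain ⟨t, ht⟩ := Brauer.exists_eq_smul_one_of_irreducible (hirr i) (T := toK i)
      (fun g => LinearMap.ext fun v => (hint i g v).symm)
    refine ⟨t, fun m => ?_⟩
    conv_lhs => rw [← Finset.univ_sum_single m]
    rw [map_sum, Finset.sum_apply, Finset.sum_eq_single i]
    · apply (E i).injective
      have h1 := LinearMap.congr_fun ht (E i (m i))
      simp only [toK, LinearMap.comp_apply, LinearEquiv.coe_coe, LinearMap.restrictScalars_apply,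
        LinearEquiv.symm_apply_apply, LinearMap.smul_apply, Module.End.one_apply] at h1
      rw [map_smul]
      exact h1
    · intro j _ hji
      apply (E i).injective
      have h1 := LinearMap.congr_fun (hnoiso j i hji (toK j) (hint j)) (E j (m j))
      simp only [toK, LinearMap.comp_apply, LinearEquiv.coe_coe, LinearMap.restrictScalars_apply,
        LinearEquiv.symm_apply_apply, LinearMap.zero_apply] at h1
      rw [map_zero]
      exact h1
    · exact fun h => absurd (Finset.mem_univ _) h
  let F0 : M →ₗ[k] M := LinearMap.pi fun i => A' i ∘ₗ LinearMap.proj i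
  have hF0 : ∀ (m : M) (i : ι), F0 m i = A' i (m i) := fun m i => rfl
  let F : Module.End (Module.End k[G] M) M :=
    { toFun := F0
      map_add' := map_add F0
      map_smul' := fun φ m => by
        simp only [Module.End.smul_def, RingHom.id_apply]
        funext i
        obtain ⟨t, ht⟩ := hφ φ i
        rw [hF0, ht m, ht (F0 m), map_smul, hF0] }
  obtain ⟨r, hr⟩ := jacobson_density F (Finset.univ.image (Module.Free.chooseBasis k M))
  have hrall : ∀ m : M, F0 m = r • m := by
    intro m
    rw [← (Module.Free.chooseBasis k M).sum_repr m, map_sum, Finset.smul_sum]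
    refine Finset.sum_congr rfl fun b _ => ?_
    rw [smul_comm r, ← hr _ (Finset.mem_image_of_mem _ (Finset.mem_univ b)), map_smul]
    rfl
  refine ⟨r, fun i => LinearMap.ext fun v => ?_⟩
  have h := congrFun (hrall (Pi.single (M := fun l => (ρ l).asModule) i ((E i).symm v))) i
  rw [hF0, Pi.smul_apply, Pi.single_eq_same] at h
  have h2 := congrArg (E i) h
  simp only [A', E, LinearMap.comp_apply, LinearEquiv.coe_coe, LinearEquiv.apply_symm_apply,
    Representation.asModuleEquiv_map_smul] at h2
  exact h2.symm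

end Cfsg.Agent.ModRep
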